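/-
Two-generation of groups of Lie type: the torus trick and closure certificates.
-/
import Cfsg.Agent.Lib.Tw.InstF4

set_option autoImplicit false

namespace Cfsg.Agent.Gen2

open Cfsg.Lie Cfsg.Agent.Chev Cfsg.Agent.Chev.RSys Cfsg.Agent.Chev.PreRGD

section abstract

variable {K : Type*} [Field K] {G : Type*} [Group G]

/-- Conjugation by `g` scales the parameter by `α`. -/
def Scale (g : G) (Y : K → G) (α : K) : Prop := ∀ u, g * Y u * g⁻¹ = Y (α * u)

/-- The family is additive. -/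
def Addv (Y : K → G) : Prop := ∀ t u, Y (t + u) = Y t * Y u

theorem Addv.zero {Y : K → G} (h : Addv Y) : Y 0 = 1 := by simpa using h 0 0

theorem Addv.neg {Y : K → G} (h : Addv Y) (t : K) : Y (-t) = (Y t)⁻¹ :=
  eq_inv_of_mul_eq_one_left (by rw [← h, neg_add_cancel, h.zero])

/-- Every nonzero square is a power of `α`, and `α ≠ 1`. -/
def Gen (α : K) : Prop := α ≠ 1 ∧ ∀ t : K, t ≠ 0 → ∃ k : ℕ, α ^ k = t ^ 2

theorem exists_sq_add_sq [Finite K] (a : K) : ∃ s t : K, a = s ^ 2 + t ^ 2 := by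
  cases nonempty_fintype K
  by_cases h2 : ringChar K = 2
  · obtain ⟨s, hs⟩ := FiniteField.isSquare_of_char_two h2 a
    exact ⟨s, 0, by rw [hs]; ring⟩
  · obtain ⟨s, t, h⟩ := FiniteField.exists_root_sum_quadratic (R := K) (f := Polynomial.X ^ 2)
      (g := Polynomial.X ^ 2 - Polynomial.C a) (by simp) (Polynomial.degree_X_pow_sub_C (by decide) _)
      (FiniteField.odd_card_of_char_ne_two h2)
    simp at h
    exact ⟨s, t, by linear_combination -h⟩

theorem Gen.all [Finite K] {α : K} (h : Gen α) {S : K → Prop} (h0 : S 0) (ha : ∀ t u, S t → S u → S (t + u))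
    (hm : ∀ t, S t → S (α * t)) {t₀ : K} (h1 : t₀ ≠ 0) (h2 : S t₀) (t : K) : S t := by
  have h3 : ∀ k : ℕ, S (α ^ k * t₀) := fun k => by
    induction k with
    | zero => simpa using h2
    | succ k ih => rw [pow_succ', mul_assoc]; exact hm _ ih
  have h4 : ∀ s : K, S (s ^ 2 * t₀) := fun s => by
    by_cases hs : s = 0
    · simpa [hs] using h0
    · obtain ⟨k, hk⟩ := h.2 s hs
      exact hk ▸ h3 k
  obtain ⟨a, b, e⟩ := exists_sq_add_sq (t * t₀⁻¹)
  have := ha _ _ (h4 a) (h4 b)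
  rwa [← add_mul, ← e, inv_mul_cancel_right₀ h1] at this

theorem core {Y : K → G} (hY : Addv Y) {h g : G} {α β : K} (h1 : Scale h Y α) (h2 : Scale g Y β) (hc : Commute g h)
    {M : Subgroup G} (hh : h ∈ M) (hg : Y 1 * g * (Y 1)⁻¹ ∈ M) : Y ((α - 1) * (β - 1)) ∈ M := by
  have h3 := mul_mem (mul_mem (mul_mem hg hh) (inv_mem hg)) (inv_mem hh)
  have e1 : (Y 1)⁻¹ * h * Y 1 = Y (α - 1) * h := by
    have := h1 1
    rw [mul_one, mul_inv_eq_iff_eq_mul] at this
    rw [mul_assoc, this, ← mul_assoc, ← hY.neg, ← hY]; congr 2; ring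
  have e2 : g * (Y (α - 1) * h) * g⁻¹ = Y (β * (α - 1)) * h := by
    rw [← h2, mul_assoc (g * _) g⁻¹ h, hc.inv_left.eq]; group
  have e3 : Y 1 * g * (Y 1)⁻¹ * h * (Y 1 * g * (Y 1)⁻¹)⁻¹ * h⁻¹ =
      Y 1 * (g * ((Y 1)⁻¹ * h * Y 1) * g⁻¹) * (Y 1)⁻¹ * h⁻¹ := by group
  rw [e3, e1, e2, ← hY.neg, mul_assoc, mul_assoc, mul_assoc, ← mul_assoc h, h1, ← hY, ← hY] at h3
  convert h3 using 2
  ring

theorem all_mem [Finite K] {Y : K → G} (hY : Addv Y) {h g : G} {α β : K} (h1 : Scale h Y α) (h2 : Scale g Y β)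
    (hc : Commute g h) (hα : Gen α) (hβ : β ≠ 1) {M : Subgroup G} (hh : h ∈ M) (hg : Y 1 * g * (Y 1)⁻¹ ∈ M) (t : K) :
    Y t ∈ M :=
  hα.all (S := fun t => Y t ∈ M) (hY.zero ▸ one_mem _) (fun t u ht hu => hY t u ▸ mul_mem ht hu)
    (fun t ht => h1 t ▸ mul_mem (mul_mem hh ht) (inv_mem hh))
    (mul_ne_zero (sub_ne_zero.mpr hα.1) (sub_ne_zero.mpr hβ)) (core hY h1 h2 hc hh hg) t

/-- First half of the trick. -/
theorem first [Finite K] {Y : K → G} (hY : Addv Y) {h n y : G} {α β : K} (h1 : Scale h Y α)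
    (h2 : Scale (n * h * n⁻¹) Y β) (hc : Commute (n * h * n⁻¹) h) (hα : Gen α) (hβ : β ≠ 1) (hy : Commute y h)
    (hy' : ∀ t, Commute y (Y t)) {M : Subgroup G} (hh : h ∈ M) (hb : Y 1 * y * n ∈ M) :
    (∀ t, Y t ∈ M) ∧ y * n ∈ M ∧ y * (n * h * n⁻¹) * y⁻¹ ∈ M ∧ n⁻¹ * h * n ∈ M := by
  have h3 : ∀ t, Y t ∈ M := all_mem hY h1 (g := y * (n * h * n⁻¹) * y⁻¹) (β := β) (fun u => by
    rw [show y * (n * h * n⁻¹) * y⁻¹ * Y u * (y * (n * h * n⁻¹) * y⁻¹)⁻¹ =
      y * ((n * h * n⁻¹) * (y⁻¹ * Y u * y) * (n * h * n⁻¹)⁻¹) * y⁻¹ by group, (hy' u).inv_left.eq, inv_mul_cancel_right,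
      h2, (hy' _).eq, mul_inv_cancel_right]) ((hy.mul_left hc).mul_left hy.inv_left) hα hβ hh (by
    convert mul_mem (mul_mem hb hh) (inv_mem hb) using 1; group)
  have h4 : y * n ∈ M := by simpa [mul_assoc] using mul_mem (inv_mem (h3 1)) hb
  refine ⟨h3, h4, ?_, ?_⟩
  · convert mul_mem (mul_mem h4 hh) (inv_mem h4) using 1; group
  · convert mul_mem (mul_mem (inv_mem h4) hh) h4 using 1
    rw [mul_inv_rev, mul_assoc n⁻¹ y⁻¹, hy.inv_left.eq]; group

theorem single [Finite K] {Y : K → G} (hY : Addv Y) {h n : G} {α β : K} (h1 : Scale h Y α)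
    (h2 : Scale (n * h * n⁻¹) Y β) (hc : Commute (n * h * n⁻¹) h) (hα : Gen α) (hβ : β ≠ 1) {M : Subgroup G}
    (hh : h ∈ M) (hb : Y 1 * n ∈ M) : (∀ t, Y t ∈ M) ∧ n ∈ M := by
  have := first hY (y := 1) h1 h2 hc hα hβ (Commute.one_left _) (fun _ => Commute.one_left _) hh (by simpa using hb)
  exact ⟨this.1, by simpa using this.2.1⟩

theorem double [Finite K] {Y Z : K → G} (hY : Addv Y) (hZ : Addv Z) (hYZ : ∀ t u, Commute (Z u) (Y t)) {h n : G}
    {α β γ δ : K} (h1 : Scale h Y α) (h2 : Scale (n * h * n⁻¹) Y β) (h3 : Scale h Z 1) (h4 : Scale (n * h * n⁻¹) Z γ)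
    (h5 : Scale (n⁻¹ * h * n) Z δ) (hc : Commute (n * h * n⁻¹) h) (hc' : Commute (n * h * n⁻¹) (n⁻¹ * h * n))
    (hα : Gen α) (hβ : β ≠ 1) (hγ : γ ≠ 1) (hδ : Gen δ) {M : Subgroup G} (hh : h ∈ M) (hb : Y 1 * Z 1 * n ∈ M) :
    (∀ t, Y t ∈ M) ∧ (∀ t, Z t ∈ M) ∧ n ∈ M := by
  obtain ⟨a1, a2, a3, a4⟩ := first hY h1 h2 hc hα hβ (y := Z 1) (by
    have := h3 1
    rw [one_mul, mul_inv_eq_iff_eq_mul] at this
    exact this.symm) (fun t => hYZ t 1) hh hb
  have a5 := all_mem hZ h5 h4 hc' hδ hγ a4 a3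
  exact ⟨a1, a5, by simpa using mul_mem (inv_mem (a5 1)) a2⟩

theorem gen_of (a b : G) (h : ∀ M : Subgroup G, a ∈ M → b ∈ M → M = ⊤) :
    ∃ a b : G, Subgroup.closure ({a, b} : Set G) = ⊤ :=
  ⟨a, b, h _ (Subgroup.subset_closure (by simp)) (Subgroup.subset_closure (by simp))⟩

/-- `c ∈ {±1, ±2}`; the values `±2` are allowed if `b`. -/
def unitC (b : Bool) (c : ℤ) : Bool := c == 1 || c == -1 || (b && (c == 2 || c == -2))

theorem gen_zpow [Finite K] {ζ : Kˣ} (hζ : ∀ x, x ∈ Subgroup.zpowers ζ) {b : Bool} (h3 : 3 ≤ Nat.card K)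
    (hb : b = true → 4 ≤ Nat.card K) {c : ℤ} (hc : unitC b c = true) : Gen ((ζ ^ c : Kˣ) : K) := by
  have ho : orderOf ζ = Nat.card K - 1 := by rw [orderOf_eq_card_of_forall_mem_zpowers hζ, Nat.card_units]
  have hc' : (c = 1 ∨ c = -1) ∨ (4 ≤ Nat.card K ∧ (c = 2 ∨ c = -2)) := by
    simp only [unitC, Bool.or_eq_true, beq_iff_eq, Bool.and_eq_true] at hc
    exact hc.imp id fun h => ⟨hb h.1, h.2⟩
  constructor
  · intro e
    rw [Units.val_eq_one, ← orderOf_dvd_iff_zpow_eq_one, ho] at e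
    rcases hc' with (rfl | rfl) | ⟨h4, rfl | rfl⟩
    · have := Int.le_of_dvd (by decide) e; omega
    · have := Int.le_of_dvd (by decide) (dvd_neg.mp e); omega
    · have := Int.le_of_dvd (by decide) e; omega
    · have := Int.le_of_dvd (by decide) (dvd_neg.mp e); omega
  · intro t ht
    obtain ⟨m, hm⟩ := hζ (Units.mk0 t ht)
    have h1 : Units.mk0 t ht ^ 2 ∈ Subgroup.zpowers (ζ ^ c) := by
      rw [← hm]
      rcases hc' with (rfl | rfl) | ⟨-, rfl | rfl⟩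
      · exact ⟨m * 2, by simp [zpow_mul]⟩
      · exact ⟨-(m * 2), by simp [zpow_mul]⟩
      · exact ⟨m, by simp only [← zpow_natCast, ← zpow_mul]; congr 1; push_cast; ring⟩
      · exact ⟨-m, by simp only [← zpow_natCast, ← zpow_mul]; congr 1; push_cast; ring⟩
    obtain ⟨k, hk⟩ := mem_powers_iff_mem_zpowers.mpr h1
    exact ⟨k, by simpa using congrArg Units.val hk⟩

/-- The vector has a single nonzero entry, allowed by `unitC`. -/
def unitV (b : Bool) : List ℤ → Bool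
  | [] => false
  | c :: v => (unitC b c && allL v isZ) || (isZ c && unitV b v)

theorem gen_evQ [Finite K] {φ : K →+* K} {q : ℕ} (hφ : ∀ t, φ t = t ^ q) {b : Bool} (h3 : 3 ≤ Nat.card K)
    (hb : b = true → 4 ≤ Nat.card K) {v : List ℤ} (hv : unitV b v = true) {ζ : Kˣ}
    (hζ : ∀ x, x ∈ Subgroup.zpowers ζ) : Gen ((ζ ^ evQ q v : Kˣ) : K) := by
  induction v generalizing ζ with
  | nil => simp [unitV] at hv
  | cons c v ih =>
    simp only [unitV, Bool.or_eq_true, Bool.and_eq_true] at hv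
    rcases hv with ⟨h1, h2⟩ | ⟨h1, h2⟩
    · rw [evQ, evQ_zero q h2, mul_zero, add_zero]; exact gen_zpow hζ h3 hb h1
    · rw [evQ, isZ_iff.mp h1, zero_add, zpow_mul, zpow_natCast]
      refine ih h2 fun x => ?_
      obtain ⟨y, hy⟩ := Finite.injective_iff_surjective.mp φ.injective x
      obtain ⟨m, hm⟩ := hζ (Units.mk0 y (by rintro rfl; exact x.ne_zero (by simpa using hy.symm)))
      refine ⟨m, Units.ext ?_⟩
      have := congrArg (fun u : Kˣ => φ u) hm
      simp only [Units.val_mk0, hy] at this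
      rw [← this, hφ]
      simp only [← zpow_natCast, Units.val_zpow_eq_zpow_val, ← zpow_mul, mul_comm]

end abstract

/-! ### Closure certificates -/

/-- Run a list of steps `(tag, a, b, c, k)`. -/
def run (St : ℕ → ℕ → ℕ → ℕ → ℕ → Bool) (L : List (ℕ × ℕ × ℕ × ℕ × ℕ)) : ℕ → ℕ :=
  List.rec id (fun s _ f m => cond (m.testBit s.2.1 && m.testBit s.2.2.1 && m.testBit s.2.2.2.1 &&
    St s.1 s.2.1 s.2.2.1 s.2.2.2.1 s.2.2.2.2) (forceN (m ||| 2 ^ s.2.2.2.2) f) 0) L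

theorem run_sound {St : ℕ → ℕ → ℕ → ℕ → ℕ → Bool} {Kn : ℕ → Prop}
    (h : ∀ t a b c k, St t a b c k = true → Kn a → Kn b → Kn c → Kn k) (L : List (ℕ × ℕ × ℕ × ℕ × ℕ)) {m : ℕ}
    (hm : ∀ r, m.testBit r = true → Kn r) : ∀ r, (run St L m).testBit r = true → Kn r := by
  induction L generalizing m with
  | nil => exact hm
  | cons s L ih =>
    change ∀ r, (cond _ (forceN (m ||| 2 ^ s.2.2.2.2) (run St L)) 0).testBit r = true → Kn r
    rw [forceN_eq]
    cases e : (m.testBit s.2.1 && m.testBit s.2.2.1 && m.testBit s.2.2.2.1 && St s.1 s.2.1 s.2.2.1 s.2.2.2.1 s.2.2.2.2)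
    · simp
    · simp only [Bool.and_eq_true] at e
      refine ih fun r hr => ?_
      rw [Nat.testBit_or, Bool.or_eq_true, Nat.testBit_two_pow, decide_eq_true_eq] at hr
      rcases hr with hr | rfl
      exacts [hm r hr, h _ _ _ _ _ e.2 (hm _ e.1.1.1) (hm _ e.1.1.2) (hm _ e.1.2)]

/-- The mask of a list. -/
def mask (l : List ℕ) : ℕ := List.rec 0 (fun a _ m => m ||| 2 ^ a) l

theorem mask_sound {Kn : ℕ → Prop} {l : List ℕ} (h : ∀ r ∈ l, Kn r) : ∀ r, (mask l).testBit r = true → Kn r := by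
  induction l with
  | nil => simp [mask]
  | cons a l ih =>
    intro r hr
    change (mask l ||| 2 ^ a).testBit r = true at hr
    rw [Nat.testBit_or, Bool.or_eq_true, Nat.testBit_two_pow, decide_eq_true_eq] at hr
    rcases hr with hr | rfl
    exacts [ih (fun r hr => h r (List.mem_cons_of_mem _ hr)) r hr, h _ List.mem_cons_self]

/-- The certificate derives the targets from the start. -/
def derives (St : ℕ → ℕ → ℕ → ℕ → ℕ → Bool) (l : List ℕ) (L : List (ℕ × ℕ × ℕ × ℕ × ℕ)) (tg : List ℕ) : Bool :=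
  forceN (run St L (mask l)) fun m => allL tg m.testBit

theorem derives_sound {St : ℕ → ℕ → ℕ → ℕ → ℕ → Bool} {Kn : ℕ → Prop}
    (h : ∀ t a b c k, St t a b c k = true → Kn a → Kn b → Kn c → Kn k) {l tg : List ℕ}
    {L : List (ℕ × ℕ × ℕ × ℕ × ℕ)} (hd : derives St l L tg = true) (hl : ∀ r ∈ l, Kn r) : ∀ r ∈ tg, Kn r := by
  rw [derives, forceN_eq, allL_iff] at hd
  exact fun r hr => run_sound h L (mask_sound hl) r (hd r hr)

/-! ### Root elements -/

section roots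

variable {D : ChevalleyDatum} [Tab D] {K : Type*} [Field K] {G : Type*} [Group G] {x : ℕ → K → G}

theorem scale_conj (hx : StRel D x) {n h : G} {w : Equiv.Perm (Fin D.nroots)} (hn : hx.pre.Over n w)
    {a : Fin D.rank → Kˣ} (ha : ActsBy D x h a) (s : Fin D.nroots) (u : K) :
    n * h * n⁻¹ * x (w s : Fin D.nroots) u * (n * h * n⁻¹)⁻¹ = x (w s : Fin D.nroots) (chi D a s * u) := by
  obtain ⟨c, hc, h1⟩ := hx.over_conj hn s
  rw [← mul_inv_cancel_left₀ hc u, ← h1, mul_left_comm, ← h1, ← ha]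
  group

theorem scale_conj' (hx : StRel D x) {n h : G} {w : Equiv.Perm (Fin D.nroots)} (hn : hx.pre.Over n w)
    {a : Fin D.rank → Kˣ} (ha : ActsBy D x h a) (s : Fin D.nroots) (u : K) :
    n⁻¹ * h * n * x s u * (n⁻¹ * h * n)⁻¹ = x s (chi D a (w s) * u) := by
  have := scale_conj hx hn.inv ha (w s) u
  simpa using this

/-- A word in the fundamental reflections. -/
def toFin (D : ChevalleyDatum) (l : List ℕ) : List (Fin D.rank) := l.filterMap fun i => if h : i < D.rank then some ⟨i, h⟩ else none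

omit [Tab D] in
theorem map_toFin {l : List ℕ} (h : allL l (fun i => decide (i < D.rank)) = true) : (toFin D l).map Fin.val = l := by
  rw [allL_iff] at h
  induction l with
  | nil => rfl
  | cons i l ih =>
    have h1 : i < D.rank := by simpa using h i List.mem_cons_self
    rw [toFin, List.filterMap_cons, dif_pos h1, List.map_cons, ← toFin, ih fun j hj => h j (List.mem_cons_of_mem _ hj)]

theorem wordW_toFin {l : List ℕ} (h : allL l (fun i => decide (i < D.rank)) = true) (r : Fin D.nroots) :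
    ((rs D).wordW (toFin D l) r : ℕ) = wordN D l r := by rw [wordW_val, map_toFin h]

/-- All root elements of the root `r` lie in `M`. -/
def Kn (D : ChevalleyDatum) (x : ℕ → K → G) (M : Subgroup G) (r : ℕ) : Prop := r < D.nroots ∧ ∀ t, x r t ∈ M

/-- Steps for the untwisted groups. -/
def stS (D : ChevalleyDatum) (l : List ℕ) (two : Bool) (t a b c k : ℕ) : Bool :=
  (Nat.beq t 0 && Nat.beq k (wordN D l a)) ||
  (Nat.beq t 10 && Nat.beq c (D.neg a) && Nat.blt k D.nroots &&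
    allLt D.rank fun i => rcN D k i == rcN D b i - D.pairing a b * rcN D a i) ||
  (Nat.beq t 11 && (D.commTerms a b == [(k, 1, 1, 1)] || D.commTerms a b == [(k, -1, 1, 1)] ||
    (two && (D.commTerms a b == [(k, 2, 1, 1)] || D.commTerms a b == [(k, -2, 1, 1)]))))

theorem stS_sound (hx : StRel D x) {M : Subgroup G} {n : G} (hn : n ∈ M) {l : List ℕ}
    (hl : allL l (fun i => decide (i < D.rank)) = true) (ho : hx.pre.Over n ((rs D).wordW (toFin D l))) {two : Bool}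
    (h2 : two = true → (2 : K) ≠ 0) (t a b c k : ℕ) (h : stS D l two t a b c k = true) (ha : Kn D x M a)
    (hb : Kn D x M b) (hc : Kn D x M c) : Kn D x M k := by
  simp only [stS, Bool.or_eq_true, Bool.and_eq_true, Nat.beq_eq, Nat.blt_eq, allLt_iff, beq_iff_eq] at h
  rcases h with (⟨-, rfl⟩ | ⟨⟨⟨-, rfl⟩, hk⟩, h⟩) | ⟨-, h⟩
  · obtain ⟨c, hc, h1⟩ := hx.over_conj ho ⟨a, ha.1⟩
    rw [← wordW_toFin hl ⟨a, ha.1⟩]
    refine ⟨Fin.is_lt _, fun t => ?_⟩
    rw [← mul_inv_cancel_left₀ hc t, ← h1]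
    exact mul_mem (mul_mem hn (ha.2 _)) (inv_mem hn)
  · have e : (rs D).refl ⟨a, ha.1⟩ ⟨b, hb.1⟩ = ⟨k, hk⟩ := (rs D).rc_inj (by
      rw [rc_refl, rs_pair]
      ext i
      exact (h i i.2).symm)
    have h3 : nElt D x a 1 ∈ M := by rw [nElt_def]; exact mul_mem (mul_mem (ha.2 _) (hc.2 _)) (ha.2 _)
    refine ⟨hk, fun t => ?_⟩
    have h4 := hx.r7.conj ⟨a, ha.1⟩ ⟨b, hb.1⟩ 1 (etaK D K ⟨a, ha.1⟩ ⟨b, hb.1⟩ * t) one_ne_zero
    rw [e, one_zpow, mul_one, ← mul_assoc (etaK D K _ _)] at h4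
    have h5 : etaK D K ⟨a, ha.1⟩ ⟨b, hb.1⟩ * etaK D K ⟨a, ha.1⟩ ⟨b, hb.1⟩ = 1 := by
      rcases hx.r7.sign ⟨a, ha.1⟩ ⟨b, hb.1⟩ with e | e <;> simp [e]
    rw [h5, one_mul] at h4
    exact h4 ▸ mul_mem (mul_mem h3 (hb.2 _)) (inv_mem h3)
  · obtain ⟨e, he, h⟩ : ∃ e : ℤ, (e : K) ≠ 0 ∧ D.commTerms a b = [(k, e, 1, 1)] := by
      rcases h with (h | h) | ⟨h0, h | h⟩
      exacts [⟨1, by simp, h⟩, ⟨-1, by simp, h⟩, ⟨2, by simpa using h2 h0, h⟩, ⟨-2, by simpa using h2 h0, h⟩]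
    refine ⟨(commTerms_sound ha.1 hb.1 (c := (k, e, 1, 1)) (by simp [h])).1, fun t => ?_⟩
    have h3 := hx.comm_one ha.1 hb.1 h (-(e : K)⁻¹) t
    rw [mul_neg, mul_inv_cancel₀ he, neg_mul, neg_neg, one_mul] at h3
    exact h3 ▸ mul_mem (mul_mem (mul_mem (inv_mem (hb.2 _)) (inv_mem (ha.2 _))) (hb.2 _)) (ha.2 _)

/-- The fundamental roots and their negatives. -/
def targ (D : ChevalleyDatum) : List ℕ := (List.range D.rank).flatMap fun i => [D.simple i, D.neg (D.simple i)]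

theorem eq_top_of_targ {M : Subgroup (D.group K)} (h : ∀ r ∈ targ D, Kn D (ChevM.xG D K) M r) : M = ⊤ :=
  ChevM.eq_top_of_simple (fun j t => (h _ (by
    simp only [targ, List.mem_flatMap, List.mem_range]; exact ⟨j, j.2, by simp⟩)).2 t) fun j t => (h _ (by
    simp only [targ, List.mem_flatMap, List.mem_range]; exact ⟨j, j.2, by simp⟩)).2 t

omit [Tab D] in
theorem addv_x (hx : StRel D x) {r : ℕ} (hr : r < D.nroots) : Addv (x r) := fun t u => (hx.add r t u hr).symm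

theorem commute_conj [Finite K] (hx : StRel D x) {n h : G} {w : Equiv.Perm (Fin D.nroots)} (hn : hx.pre.Over n w)
    (hh : h ∈ hx.pre.H) : Commute (n * h * n⁻¹) h ∧ Commute (n * h * n⁻¹) (n⁻¹ * h * n) :=
  ⟨hx.commute_H (hn.conj_H hh) hh, hx.commute_H (hn.conj_H hh) (by simpa using hn.inv.conj_H hh)⟩

/-- One root. -/
def checkOne (D : ChevalleyDatum) (l : List ℕ) (two : Bool) (r s : ℕ) (lam : List ℤ)
    (L : List (ℕ × ℕ × ℕ × ℕ × ℕ)) : Bool :=
  allL l (fun i => decide (i < D.rank)) && decide (s < D.nroots) && decide (wordN D l s = r) &&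
    unitC false (prL D lam r) && unitC false (prL D lam s) && derives (stS D l two) [r] L (targ D)

theorem gen_of_one [Finite K] (h3 : 3 ≤ Nat.card K) {l : List ℕ} {two : Bool} (h2 : two = true → (2 : K) ≠ 0)
    {r s : ℕ} {lam : List ℤ} {L : List (ℕ × ℕ × ℕ × ℕ × ℕ)} (h : checkOne D l two r s lam L = true) :
    ∃ a b : D.group K, Subgroup.closure ({a, b} : Set (D.group K)) = ⊤ := by
  simp only [checkOne, Bool.and_eq_true, decide_eq_true_eq] at h
  obtain ⟨⟨⟨⟨⟨hl, hs⟩, e⟩, c1⟩, c2⟩, hd⟩ := h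
  obtain ⟨ζ, hζ⟩ := IsCyclic.exists_generator (α := Kˣ)
  have hx := ChevM.stRel_xG D K
  have ho := over_nw (P := hx.pre) (toFin D l)
  have ha := hx.actsBy_torus hx.r3_of_finite (cot D lam ζ)
  rw [← wordW_toFin hl ⟨s, hs⟩] at e
  subst e
  refine gen_of (hx.tor (cot D lam ζ)) (ChevM.xG D K ((rs D).wordW (toFin D l) ⟨s, hs⟩ : Fin D.nroots) 1 *
    hx.pre.nw (toFin D l)) fun M m1 m2 => eq_top_of_targ ?_
  obtain ⟨h4, h5⟩ := single (addv_x hx (Fin.is_lt _)) (ha _) (scale_conj hx ho ha ⟨s, hs⟩)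
    (commute_conj hx ho (hx.tor_mem _)).1 (by rw [chi_cot]; exact gen_zpow hζ h3 (by simp) c1)
    (by rw [chi_cot]; exact (gen_zpow hζ h3 (by simp) c2).1) m1 m2
  exact derives_sound (stS_sound hx h5 hl ho h2) hd (by simpa using ⟨Fin.is_lt _, h4⟩)

/-- Two roots. -/
def checkTwo (D : ChevalleyDatum) (l : List ℕ) (b : Bool) (r r' s s' : ℕ) (lam : List ℤ)
    (L : List (ℕ × ℕ × ℕ × ℕ × ℕ)) : Bool :=
  allL l (fun i => decide (i < D.rank)) && decide (r' < D.nroots) && decide (wordN D l r' = r) &&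
    decide (s' < D.nroots) && decide (wordN D l s' = s) && (TwData.pack 0 0 0 0 0 0).commB D s r &&
    unitC b (prL D lam r) && unitC b (prL D lam r') && isZ (prL D lam s) && unitC b (prL D lam s') &&
    unitC b (prL D lam (wordN D l s)) && derives (stS D l false) [r, s] L (targ D)

theorem gen_of_two [Finite K] (h3 : 3 ≤ Nat.card K) {l : List ℕ} {b : Bool} (hb : b = true → 4 ≤ Nat.card K)
    {r r' s s' : ℕ} {lam : List ℤ} {L : List (ℕ × ℕ × ℕ × ℕ × ℕ)} (h : checkTwo D l b r r' s s' lam L = true) :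
    ∃ a b : D.group K, Subgroup.closure ({a, b} : Set (D.group K)) = ⊤ := by
  simp only [checkTwo, Bool.and_eq_true, decide_eq_true_eq] at h
  obtain ⟨⟨⟨⟨⟨⟨⟨⟨⟨⟨⟨hl, hr⟩, e⟩, hs⟩, e'⟩, hc⟩, c1⟩, c2⟩, c3⟩, c4⟩, c5⟩, hd⟩ := h
  obtain ⟨ζ, hζ⟩ := IsCyclic.exists_generator (α := Kˣ)
  have hx := ChevM.stRel_xG D K
  have ho := over_nw (P := hx.pre) (toFin D l)
  have ha := hx.actsBy_torus hx.r3_of_finite (cot D lam ζ)
  rw [← wordW_toFin hl ⟨r', hr⟩] at e
  rw [← wordW_toFin hl ⟨s', hs⟩] at e'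
  subst e e'
  rw [← wordW_toFin hl] at c5
  refine gen_of (hx.tor (cot D lam ζ)) (ChevM.xG D K ((rs D).wordW (toFin D l) ⟨r', hr⟩ : Fin D.nroots) 1 *
    ChevM.xG D K ((rs D).wordW (toFin D l) ⟨s', hs⟩ : Fin D.nroots) 1 * hx.pre.nw (toFin D l))
    fun M m1 m2 => eq_top_of_targ ?_
  obtain ⟨h4, h5, h6⟩ := double (addv_x hx (Fin.is_lt _)) (addv_x hx (Fin.is_lt _))
    (fun t u => hx.commute_of_commB (T := TwData.pack 0 0 0 0 0 0) (charOK_zero K) (Fin.is_lt _) (Fin.is_lt _) hc u t)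
    (ha _) (scale_conj hx ho ha ⟨r', hr⟩) (fun u => by rw [ha, chi_cot, isZ_iff.mp c3]; simp)
    (scale_conj hx ho ha ⟨s', hs⟩) (scale_conj' hx ho ha _)
    (commute_conj hx ho (hx.tor_mem _)).1 (commute_conj hx ho (hx.tor_mem _)).2
    (by rw [chi_cot]; exact gen_zpow hζ h3 hb c1) (by rw [chi_cot]; exact (gen_zpow hζ h3 hb c2).1)
    (by rw [chi_cot]; exact (gen_zpow hζ h3 hb c4).1) (by rw [chi_cot]; exact gen_zpow hζ h3 hb c5) m1 m2
  exact derives_sound (stS_sound hx h6 hl ho (by simp)) hd (by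
    simpa using ⟨⟨Fin.is_lt _, h4⟩, Fin.is_lt _, h5⟩)

theorem eq_zero_or_one [Finite K] (h : ¬ 3 ≤ Nat.card K) (t : K) : t = 0 ∨ t = 1 := by
  classical
  by_contra h1
  push Not at h1
  cases nonempty_fintype K
  have := Finset.card_le_univ ({0, 1, t} : Finset K)
  rw [Finset.card_eq_three.mpr ⟨0, 1, t, zero_ne_one, h1.1.symm, h1.2.symm, rfl⟩, ← Nat.card_eq_fintype_card] at this
  exact h this

theorem kn_of_one [Finite K] (h : ¬ 3 ≤ Nat.card K) (hx : StRel D x) {M : Subgroup G} {r : ℕ} (hr : r < D.nroots)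
    (h1 : x r 1 ∈ M) : Kn D x M r := ⟨hr, fun t => by
  rcases eq_zero_or_one h t with rfl | rfl
  exacts [hx.zero hr ▸ one_mem _, h1]⟩

theorem gen_of_one_two [Finite K] (h3 : ¬ 3 ≤ Nat.card K) {l : List ℕ} {r s : ℕ} {lam : List ℤ}
    {L : List (ℕ × ℕ × ℕ × ℕ × ℕ)} (h : checkOne D l false r s lam L = true) :
    ∃ a b : D.group K, Subgroup.closure ({a, b} : Set (D.group K)) = ⊤ := by
  simp only [checkOne, Bool.and_eq_true, decide_eq_true_eq] at h
  obtain ⟨⟨⟨⟨⟨hl, hs⟩, e⟩, -⟩, -⟩, hd⟩ := h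
  have hx := ChevM.stRel_xG D K
  have hr : r < D.nroots := by rw [← e, ← wordW_toFin hl ⟨s, hs⟩]; exact Fin.is_lt _
  refine gen_of (ChevM.xG D K r 1) (hx.pre.nw (toFin D l)) fun M m1 m2 => eq_top_of_targ ?_
  exact derives_sound (stS_sound hx m2 hl (over_nw _) (by simp)) hd (by simpa using kn_of_one h3 hx hr m1)

/-- Three roots, for the field with two elements. -/
def checkThree (D : ChevalleyDatum) (C : Coll) (l : List ℕ) (t r s u : ℕ) (L L' : List (ℕ × ℕ × ℕ × ℕ × ℕ)) : Bool :=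
  allL l (fun i => decide (i < D.rank)) && decide (t < D.nroots) && decide (u < D.nroots) &&
    C.check (oneW [r, s, u, r, s, u]) (oneW [t]) && derives (stS D l false) [t] L [r, s] &&
    derives (stS D l false) [t, u] L' (targ D)

theorem gen_of_three [Finite K] (h3 : ¬ 3 ≤ Nat.card K) {C : Coll} (hC : CollFor D C) (hp : C.p = 2) {l : List ℕ}
    {t r s u : ℕ} {L L' : List (ℕ × ℕ × ℕ × ℕ × ℕ)} (h : checkThree D C l t r s u L L' = true) :
    ∃ a b : D.group K, Subgroup.closure ({a, b} : Set (D.group K)) = ⊤ := by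
  simp only [checkThree, Bool.and_eq_true, decide_eq_true_eq] at h
  obtain ⟨⟨⟨⟨⟨hl, ht⟩, hu⟩, hc⟩, hd⟩, hd'⟩ := h
  have hx := ChevM.stRel_xG D K
  have : CharP K 2 := CharTwo.of_one_ne_zero_of_two_eq_zero one_ne_zero (by
    rcases eq_zero_or_one h3 (2 : K) with h | h
    exacts [h, absurd (by linear_combination h) (one_ne_zero (α := K))])
  have h1 := evS_eq_of_check hx hC (hp ▸ charOK_of K 2) (fun _ => 0) hc
  rw [evS_oneW, evS_oneW] at h1
  refine gen_of (ChevM.xG D K r 1 * ChevM.xG D K s 1 * ChevM.xG D K u 1) (hx.pre.nw (toFin D l))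
    fun M h2 m2 => eq_top_of_targ ?_
  have h4 := stS_sound hx m2 hl (over_nw _) (two := false) (by simp)
  have h5 : Kn D (ChevM.xG D K) M t := kn_of_one h3 hx ht (by
    convert mul_mem h2 h2 using 1
    simpa [mul_assoc] using h1.symm)
  have h6 := derives_sound h4 hd (by simpa using h5)
  have h7 : Kn D (ChevM.xG D K) M u := kn_of_one h3 hx hu (by
    rwa [mul_mem_cancel_left (mul_mem ((h6 r (by simp)).2 1) ((h6 s (by simp)).2 1))] at h2)
  exact derives_sound h4 hd' (by simpa using ⟨h5, h7⟩)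

end roots

end Cfsg.Agent.Gen2
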