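/-
Two-generation of twisted groups.
-/
import Cfsg.Agent.Lib.Gen2.Basic

set_option autoImplicit false

namespace Cfsg.Agent.Gen2

open Cfsg.Lie Cfsg.Agent.Chev Cfsg.Agent.Chev.RSys Cfsg.Agent.Chev.PreRGD

variable {D : ChevalleyDatum} [Tab D] {T : TwData} {k : ℕ} {K : Type*} [Field K] {G : Type*} [Group G]
  {x : ℕ → K → G} {φ : K →+* K} {σ : G →* G}

variable (D T k x φ σ) in
/-- All relative root elements of the root `r` lie in `M`. -/
def KnT (M : Subgroup G) (r : ℕ) : Prop := r < D.nroots ∧ ∀ t ∈ Fx T k φ r, dl σ (kr T k r) (x r t) ∈ M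

/-- The word of a relative root element; the parameter is `1` if `one`. -/
def Yw (T : TwData) (r : ℕ) (one : Bool) : ℕ → List (ℕ × Pol)
  | 0 => []
  | j + 1 => Yw T r one j ++ [(T.π^[j] r, [(sgnP T r j, if one then [] else [j])])]

/-- The trace polynomial. -/
def trP (e : ℤ) : ℕ → Pol
  | 0 => []
  | j + 1 => (e, [j]) :: trP e j

/-- An order of collection. -/
def ordT (T : TwData) (a b e : ℕ) : ℕ :=
  if e = a ∨ T.π e = a ∨ T.π (T.π e) = a then e else if e = b ∨ T.π e = b ∨ T.π (T.π e) = b then 100 + e else 200 + e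

/-- Steps for the twisted groups. -/
def stT (D : ChevalleyDatum) (T : TwData) (k : ℕ) (C : (ℕ → ℕ) → Coll) (l : List ℕ) (t a b c r : ℕ) : Bool :=
  (Nat.beq t 0 && Nat.beq r (wordN D l a) && Nat.beq (kr T k r) (kr T k a)) ||
  (Nat.beq t 13 && Nat.beq r (T.π a) && Nat.beq (kr T k r) k && Nat.beq (kr T k a) k) ||
  (Nat.beq t 12 && Nat.beq c c && Nat.beq (kr T k a) k && Nat.beq (kr T k b) k && Nat.beq (T.π r) r &&
    Nat.blt r D.nroots && ((C (ordT T a b)).check (commW (Yw T b true k) (Yw T a false k)) [(r, trP 1 k)] ||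
      (C (ordT T a b)).check (commW (Yw T b true k) (Yw T a false k)) [(r, trP (-1) k)]))

theorem evP_trP (v : ℕ → K) (e : ℤ) (j : ℕ) : evP v (trP e j) = e * ∑ i ∈ Finset.range j, v i := by
  induction j with
  | zero => simp [trP]
  | succ j ih => rw [trP, evP_cons, ih, Finset.sum_range_succ]; simp; ring

variable (h : IsTw D T x φ σ) (P : Per D T k)
include h P

theorem dl_eq_Yw {r : ℕ} (hr : r < D.nroots) (t : K) (j : ℕ) :
    dl σ j (x r t) = evS x (fun i => φ^[i] t) (Yw T r false j) := by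
  induction j with
  | zero => rfl
  | succ j ih =>
    rw [dl_succ', Yw, evS_append, ih, h.iter_eq P j ⟨r, hr⟩, h.tw.ρ_pow_val]; simp

theorem dl_eq_Yw_one {r : ℕ} (hr : r < D.nroots) (v : ℕ → K) (j : ℕ) :
    dl σ j (x r 1) = evS x v (Yw T r true j) := by
  induction j with
  | zero => rfl
  | succ j ih =>
    rw [dl_succ', Yw, evS_append, ih, h.iter_eq P j ⟨r, hr⟩, h.tw.ρ_pow_val]; simp

theorem addv_dl {r : ℕ} (hr : r < D.nroots) : Addv fun t => dl σ (kr T k r) (x r t) :=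
  (h.sl2d_dl (h.orbOK P ⟨r, hr⟩)).x_add

variable (hφk : ∀ t, φ^[k] t = t) (htr : ∃ t, ∑ i ∈ Finset.range k, φ^[i] t ≠ 0)
include hφk htr

theorem stT_sound {C : (ℕ → ℕ) → Coll} (hC : ∀ o, CollFor D (C o)) (hp : ∀ o, (C o).p = 0) {M : Subgroup G} {n : G}
    (hn : n ∈ M) (hσ : σ n = n) {l : List ℕ} (hl : allL l (fun i => decide (i < D.rank)) = true)
    (ho : h.chv.rel.pre.Over n ((rs D).wordW (toFin D l))) (t a b c r : ℕ) (e : stT D T k C l t a b c r = true)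
    (ha : KnT D T k x φ σ M a) (hb : KnT D T k x φ σ M b) (_ : KnT D T k x φ σ M c) : KnT D T k x φ σ M r := by
  simp only [stT, Bool.or_eq_true, Bool.and_eq_true, Nat.beq_eq, Nat.blt_eq] at e
  rcases e with (⟨⟨-, rfl⟩, e⟩ | ⟨⟨⟨-, rfl⟩, e⟩, e'⟩) | ⟨⟨⟨⟨⟨-, e1⟩, e2⟩, e3⟩, hr⟩, e⟩
  · obtain ⟨c, hc, h1⟩ := h.chv.rel.over_conj ho ⟨a, ha.1⟩
    rw [← wordW_toFin hl ⟨a, ha.1⟩] at e ⊢
    refine ⟨Fin.is_lt _, fun t ht => ?_⟩
    have h2 := (h.fix_iff P _ t).mpr ht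
    rw [e] at h2 ⊢
    rw [← mul_inv_cancel_left₀ hc t, ← h1] at h2 ⊢
    rw [iterate_map_mul, iterate_map_mul, iterate_map_inv, show σ^[kr T k a] n = n from
      Fold.fix_pow (F := h.fold) hσ _, mul_left_inj, mul_right_inj] at h2
    rw [← dl_conj hσ]
    exact mul_mem (mul_mem hn (ha.2 _ ((h.fix_iff P ⟨a, ha.1⟩ _).mp h2))) (inv_mem hn)
  · refine ⟨h.tw.lt a ha.1, fun t _ => ?_⟩
    obtain ⟨s, hs⟩ : ∃ s, φ s = T.ε a * t := ⟨φ^[k - 1] (T.ε a * t), by
      rw [← Function.iterate_succ_apply' φ, show (k - 1).succ = k by have := P.pos; omega, hφk]⟩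
    have h1 : σ (x a s) = x (T.π a) t := by
      rw [h.map ⟨a, ha.1⟩, h.tw.e_of_zero P.p0, pow_one, hs, ← mul_assoc, T.ε_cast_mul_self, one_mul]
    have h2 : s ∈ Fx T k φ a := by rw [mem_Fx, e', hφk]
    have h3 := h.fix_dl_x (h.orbOK P ⟨a, ha.1⟩) ((h.fix_iff P ⟨a, ha.1⟩ s).mpr h2)
    rw [map_dl σ (σ' := σ) fun _ => rfl, h1] at h3
    have h4 := ha.2 s h2
    rw [← h3, e'] at h4
    rwa [e]
  · obtain ⟨ε, hε, e⟩ : ∃ ε : ℤ, ε * ε = 1 ∧
        (C (ordT T a b)).check (commW (Yw T b true k) (Yw T a false k)) [(r, trP ε k)] = true :=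
      e.elim (fun e => ⟨1, rfl, e⟩) fun e => ⟨-1, rfl, e⟩
    refine ⟨hr, fun s hs => ?_⟩
    rw [mem_Fx, kr_fix e3, Function.iterate_one] at hs
    rw [kr_fix e3, dl_one]
    obtain ⟨t₀, ht₀⟩ := htr
    have h1 : φ (∑ i ∈ Finset.range k, φ^[i] t₀) = ∑ i ∈ Finset.range k, φ^[i] t₀ := by
      have := Finset.sum_range_succ' (fun i => φ^[i] t₀) k
      rw [Finset.sum_range_succ, hφk, Function.iterate_zero_apply, add_left_inj] at this
      rw [map_sum, this]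
      exact Finset.sum_congr rfl fun i _ => (Function.iterate_succ_apply' φ i t₀).symm
    set c₀ := ε * s * (∑ i ∈ Finset.range k, φ^[i] t₀)⁻¹ with hc₀
    have h2 : φ c₀ = c₀ := by rw [hc₀, map_mul, map_mul, map_inv₀, h1, hs, map_intCast]
    have h3 : ∀ i, φ^[i] (c₀ * t₀) = c₀ * φ^[i] t₀ := fun i => by
      rw [iterate_map_mul, Function.iterate_fixed h2]
    have h4 := h.chv.rel.comm_of_check (hC _) (by rw [hp]; exact charOK_zero K) (fun i => φ^[i] (c₀ * t₀)) e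
    rw [← dl_eq_Yw h P ha.1, ← dl_eq_Yw_one h P hb.1, evS_cons, evS_nil, mul_one, evP_trP] at h4
    simp only [h3, ← Finset.mul_sum] at h4
    rw [hc₀, inv_mul_cancel_right₀ ht₀, ← mul_assoc, ← Int.cast_mul, hε, Int.cast_one, one_mul, ← hc₀] at h4
    have h5 := ha.2 (c₀ * t₀) (by rw [mem_Fx, e1, hφk])
    have h6 := hb.2 1 (one_mem _)
    rw [e1] at h5
    rw [e2] at h6
    exact h4 ▸ mul_mem (mul_mem (mul_mem (inv_mem h6) (inv_mem h5)) h6) h5

omit h P hφk htr [Tab D] in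
/-- The certificate for a twisted group. -/
def checkT (D : ChevalleyDatum) (T : TwData) (k : ℕ) (C : (ℕ → ℕ) → Coll) (l : List ℕ) (r s : ℕ) (lam : List ℤ)
    (L : List (ℕ × ℕ × ℕ × ℕ × ℕ)) (tg : List ℕ) : Bool :=
  allL l (fun i => decide (i < D.rank)) && decide (s < D.nroots) && decide (wordN D l s = r) &&
    decide (kr T k r = k) && (allLt D.nroots fun r => Nat.beq (T.π (wordN D l r)) (wordN D l (T.π r))) &&
    unitV true (exN D T lam k r) && unitV true (exN D T lam k s) && derives (stT D T k C l) [r] L tg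

theorem gen_of_checkT [Finite K] (h4 : 4 ≤ Nat.card K) {q : ℕ} (hφ : ∀ t, φ t = t ^ q) {C : (ℕ → ℕ) → Coll}
    (hC : ∀ o, CollFor D (C o)) (hp : ∀ o, (C o).p = 0) {Γ : Type*} [Group Γ] {f : Γ →* G} (E : h.fold.Emb f)
    (hf : f.range ≤ h.fold.gen) {A : Type*} {rep : A → Fin D.rank} (hrep : ∀ i, ∃ a, i ∈ h.fold.orb (rep a))
    {l : List ℕ} {r s : ℕ} {lam : List ℤ} {L : List (ℕ × ℕ × ℕ × ℕ × ℕ)} {tg : List ℕ}
    (hc : checkT D T k C l r s lam L tg = true) (htg : ∀ a, D.simple (rep a) ∈ tg ∧ D.neg (D.simple (rep a)) ∈ tg ∧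
      kr T k (D.neg (D.simple (rep a))) = kr T k (D.simple (rep a))) :
    ∃ a b : Γ, Subgroup.closure ({a, b} : Set Γ) = ⊤ := by
  simp only [checkT, Bool.and_eq_true, decide_eq_true_eq] at hc
  obtain ⟨⟨⟨⟨⟨⟨⟨hl, hs⟩, e⟩, hk⟩, hw⟩, c1⟩, c2⟩, hd⟩ := hc
  obtain ⟨ζ, hζ⟩ := IsCyclic.exists_generator (α := Kˣ)
  have hx := h.chv.rel
  obtain ⟨n, ho⟩ := E.exists_over (h.wordW_mem_WF (toFin D l) (by rwa [map_toFin hl]))
  obtain ⟨a, ea⟩ := h.tor_mem_range P E hφk (cot D lam ζ)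
  have ha := hx.actsBy_torus hx.r3_of_finite (dl h.σT k (cot D lam ζ))
  rw [← wordW_toFin hl ⟨s, hs⟩] at e
  subst e
  set r := (rs D).wordW (toFin D l) ⟨s, hs⟩
  have hy := h.map_Y' P E r (t := 1) (one_mem _)
  refine gen_of a (h.Y E r (kr T k r) 1 * n) fun M m1 m2 => ?_
  have hH : f a ∈ hx.pre.H := ea ▸ hx.tor_mem _
  have ha' : ActsBy D x (f a) (dl h.σT k (cot D lam ζ)) := ea ▸ ha
  obtain ⟨h5, h6⟩ := single (addv_dl h P r.2) (h := f a) (n := f n) (M := M.map f)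
    (fun u => by rw [dl_conj (σ := σ) (E.fix a), ha'])
    (fun u => by
      rw [dl_conj (σ := σ) (by rw [← map_inv, ← map_mul, ← map_mul]; exact E.fix _), scale_conj hx ho ha' ⟨s, hs⟩])
    (commute_conj hx ho hH).1 (by rw [h.chi_dl_cot hφ]; exact gen_evQ hφ (by omega) (fun _ => h4) c1 hζ)
    (by rw [h.chi_dl_cot hφ]; exact (gen_evQ hφ (by omega) (fun _ => h4) c2 hζ).1) ⟨a, m1, rfl⟩
    ⟨_, m2, by rw [map_mul, hy]⟩
  have h7 := derives_sound (stT_sound h P hφk htr hC hp h6 (E.fix n) hl ho) hd (by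
    simpa using ⟨r.2, fun t _ => h5 t⟩)
  have h8 := h.gen_le P hrep (B := M.map f) (fun a => (h7 _ (htg a).1).2) fun a =>
    (htg a).2.2 ▸ (h7 _ (htg a).2.1).2 1 (one_mem _)
  refine eq_top_iff.mpr fun g _ => ?_
  obtain ⟨g', h9, e⟩ := h8 (hf ⟨g, rfl⟩)
  exact E.inj e ▸ h9

omit h P hφk htr [Tab D] in
theorem exists_trace_ne [Fintype K] {q : ℕ} (hq : 2 ≤ q) (hφ : ∀ t, φ t = t ^ q) (hk : 0 < k)
    (hK : Fintype.card K = q ^ k) : ∃ t, ∑ i ∈ Finset.range k, φ^[i] t ≠ 0 := by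
  by_contra h1
  push Not at h1
  obtain ⟨k, rfl⟩ := Nat.exists_eq_succ_of_ne_zero hk.ne'
  have h2 : ∀ i t, φ^[i] t = t ^ q ^ i := fun i t => by
    induction i with
    | zero => simp
    | succ i ih => rw [Function.iterate_succ_apply', ih, hφ, ← pow_mul, ← pow_succ]
  let p : Polynomial K := Polynomial.X ^ q ^ k + ∑ i ∈ Finset.range k, Polynomial.X ^ q ^ i
  have h3 : (∑ i ∈ Finset.range k, (Polynomial.X : Polynomial K) ^ q ^ i).degree < (q ^ k : ℕ) := by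
    refine lt_of_le_of_lt (Polynomial.degree_sum_le _ _) ((Finset.sup_lt_iff (WithBot.bot_lt_coe _)).mpr fun i hi => ?_)
    rw [Polynomial.degree_X_pow]
    exact_mod_cast Nat.pow_lt_pow_right hq (Finset.mem_range.mp hi)
  have h4 : p.Monic := Polynomial.monic_X_pow_add h3
  have h5 : p.natDegree = q ^ k := by
    rw [Polynomial.natDegree_add_eq_left_of_degree_lt (by rwa [Polynomial.degree_X_pow]), Polynomial.natDegree_X_pow]
  refine h4.ne_zero (Polynomial.eq_zero_of_natDegree_lt_card_of_eval_eq_zero p Function.injective_id (fun t => ?_) ?_)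
  · have := h1 t
    rw [Finset.sum_range_succ, add_comm] at this
    simpa [p, Polynomial.eval_finsetSum, h2] using this
  · rw [h5, hK]; exact Nat.pow_lt_pow_right hq (Nat.lt_succ_self k)

end Cfsg.Agent.Gen2
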